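import Cfsg.Agent.H36.K63Spec
import Cfsg.Agent.H38.Push

/-! Slot K63-SD: the class-number bound for a semidirect product. -/

set_option autoImplicit false

namespace H51.K63SD
open Cfsg H36.K63 SemidirectProduct

universe u

theorem job : JobSD.{u} := by
  intro hL h61 V E _ _ _ _ p hp hV hE φ hφ b
  classical
  have : Finite (V ⋊[φ] E) := Finite.of_equiv _ (SemidirectProduct.equivProd (φ := φ)).symm
  set K : Subgroup (V ⋊[φ] E) := (rightHom : V ⋊[φ] E →* E).ker with hK
  have hr : (inl : V →* V ⋊[φ] E).range = K := range_inl_eq_ker_rightHom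
  let e : V ≃* K := (MonoidHom.ofInjective (inl_injective (φ := φ))).trans (MulEquiv.subgroupCongr hr)
  have he : ∀ v, ((e v : K) : V ⋊[φ] E) = inl v := fun v => rfl
  have cK : Nat.card K = Nat.card V := (Nat.card_congr e.toEquiv).symm
  have iK : K.index = Nat.card E := by
    rw [hK, Subgroup.index_ker, MonoidHom.range_eq_top.2 rightHom_surjective, Subgroup.card_top]
  obtain ⟨k, hk⟩ := IsPGroup.iff_card.1 hV
  have cE : (Nat.card E).Coprime p := ((Nat.Prime.coprime_iff_not_dvd hp.out).2 hE).symm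
  have cop : (Nat.card K).Coprime K.index := by
    rw [cK, iK, hk]; exact (Nat.Coprime.pow_right k cE).symm
  have hs : IsPSolvable p (V ⋊[φ] E) := by
    refine ⟨2, ![⊥, K, ⊤], rfl, rfl, ?_, ?_, ?_⟩
    · refine Fin.monotone_iff_le_succ.2 fun i => ?_
      fin_cases i
      · exact bot_le
      · exact le_top
    · intro i
      fin_cases i
      · exact (inferInstance : (⊥ : Subgroup (V ⋊[φ] E)).Normal)
      · exact (inferInstance : K.Normal)
      · exact (inferInstance : (⊤ : Subgroup (V ⋊[φ] E)).Normal)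
    · intro i
      fin_cases i
      · refine .inl ⟨k, ?_⟩
        show (⊥ : Subgroup (V ⋊[φ] E)).relIndex K = p ^ k
        rw [Subgroup.relIndex_bot_left, cK, hk]
      · refine .inr ?_
        show (K.relIndex ⊤).Coprime p
        rw [Subgroup.relIndex_top_right, iK]; exact cE
  have hc : pPrimeCore p (V ⋊[φ] E) = ⊥ := by
    refine eq_bot_iff.2 (sSup_le fun M ⟨hM, cM⟩ => ?_)
    have d : M ⊓ K = ⊥ := (Subgroup.disjoint_of_coprime_natCard (by
      rw [cK, hk]; exact Nat.Coprime.pow_right k cM)).eq_bot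
    intro x hx
    have c : ∀ w : V, x.left * φ x.right w * x.left⁻¹ = w := by
      intro w
      have wK : (inl w : V ⋊[φ] E) ∈ K := hr ▸ ⟨w, rfl⟩
      have h1 : x * inl w * x⁻¹ * (inl w)⁻¹ ∈ M ⊓ K := by
        refine Subgroup.mem_inf.2 ⟨?_, mul_mem ((inferInstance : K.Normal).conj_mem _ wK x) (inv_mem wK)⟩
        have := mul_mem hx (hM.conj_mem _ (inv_mem hx) (inl w))
        simpa only [mul_assoc] using this
      rw [d, Subgroup.mem_bot, mul_inv_eq_one, mul_inv_eq_iff_eq_mul] at h1
      have h2 := congrArg SemidirectProduct.left h1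
      simp only [mul_left, left_inl, right_inl, map_one, MulAut.one_apply] at h2
      rw [h2, mul_inv_cancel_right]
    have h3 : φ x.right = MulAut.conj x.left⁻¹ := by
      ext w
      rw [MulAut.conj_apply, inv_inv]
      conv_rhs => rw [← c w]
      group
    have h4 : φ x.right = 1 := by
      have a1 : orderOf (φ x.right) ∣ Nat.card E := (orderOf_map_dvd φ _).trans (orderOf_dvd_natCard _)
      have a2 : orderOf (φ x.right) ∣ p ^ k := by
        rw [h3, ← hk]; exact (orderOf_map_dvd MulAut.conj _).trans (orderOf_dvd_natCard _)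
      exact orderOf_eq_one_iff.1 (Nat.eq_one_of_dvd_coprimes (Nat.Coprime.pow_right k cE) a1 a2)
    have h5 : x ∈ K := by
      rw [hK, MonoidHom.mem_ker, rightHom_eq_right]
      exact hφ (h4.trans (map_one φ).symm)
    exact d ▸ (⟨hx, h5⟩ : x ∈ M ⊓ K)
  obtain ⟨P⟩ : Nonempty (Sylow p (V ⋊[φ] E)) := inferInstance
  have cP : Nat.card P ≤ Nat.card V := by
    obtain ⟨n, hn⟩ := IsPGroup.iff_card.1 P.isPGroup'
    have h1 : Nat.card P ∣ Nat.card K * K.index := by
      rw [Subgroup.card_mul_index]; exact Subgroup.card_subgroup_dvd_card _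
    rw [cK, iK] at h1
    refine Nat.le_of_dvd Nat.card_pos (Nat.Coprime.dvd_of_dvd_mul_right ?_ h1)
    rw [hn]; exact (Nat.Coprime.pow_right n cE).symm
  have h1 := hL K rightHom rightHom_surjective rfl cop (b.map (H38.trI e.symm).toEmbedding)
  rw [Finset.sum_map] at h1
  refine le_trans (Finset.sum_le_sum fun ζ _ => comm_mono fun g hg => ?_)
    (h1.trans (Nat.mul_le_mul_left _ ((h61 p hs hc P).trans cP)))
  refine ⟨inr g, H32.mem_inertia_iff.2 fun n => ?_, rightHom_inr g⟩
  obtain ⟨v, rfl⟩ := e.surjective n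
  have h2 : (⟨inr g * (e v : V ⋊[φ] E) * (inr g)⁻¹, (inferInstance : K.Normal).conj_mem _ (e v).2 _⟩ : K)
      = e (φ g v) := Subtype.ext (by
    show inr g * inl v * (inr g)⁻¹ = inl (φ g v)
    rw [inl_aut, map_inv])
  show (H38.trI e.symm ζ).1 _ = (H38.trI e.symm ζ).1 _
  rw [H38.trI_apply, H38.trI_apply]
  erw [h2]
  rw [e.symm_apply_apply, e.symm_apply_apply]
  exact hg v

end H51.K63SD
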