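import Cfsg.Agent.H2.KpSpec

/-! Tower KP (S4202): the arithmetic jobs GA and CF. -/

set_option autoImplicit false

namespace H51.Kp
open H2.Kp

theorem gg_sq {a : ℕ} (h : a ≠ 2) : gg a ^ 2 ≤ 3 ^ (a - 1) := by
  rw [gg, if_neg h]
  exact Nat.sqrt_le' _

theorem le_gg {n k : ℕ} (hn : n ≠ 2) (h : k ^ 2 ≤ 3 ^ (n - 1)) : k ≤ gg n := by
  rw [gg, if_neg hn]
  exact Nat.le_sqrt'.2 h

theorem gg_eq {n k : ℕ} (hn : n ≠ 2) (h : k ^ 2 ≤ 3 ^ (n - 1)) (h' : 3 ^ (n - 1) < (k + 1) ^ 2) :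
    gg n = k := by
  refine le_antisymm ?_ (le_gg hn h)
  exact Nat.lt_succ_iff.1 (lt_of_pow_lt_pow_left₀ 2 (Nat.zero_le _) ((gg_sq hn).trans_lt h'))

theorem gg_sq' (a : ℕ) : 3 * gg a ^ 2 ≤ 4 * 3 ^ (a - 1) := by
  by_cases h : a = 2
  · subst h
    decide
  · have := gg_sq h
    omega

theorem jobGA : GA where
  add := fun a b ha hb h => le_gg (by omega) (by
    obtain ⟨a, rfl⟩ := Nat.exists_eq_add_of_le' ha
    obtain ⟨b, rfl⟩ := Nat.exists_eq_add_of_le' hb
    have h1 := Nat.mul_le_mul (gg_sq' (a + 1)) (gg_sq' (b + 1))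
    rw [show a + 1 + (b + 1) - 1 = a + b + 1 by omega, pow_succ 3, pow_add 3, mul_pow]
    simp only [Nat.add_sub_cancel] at h1
    generalize gg (a + 1) ^ 2 = x at *
    generalize gg (b + 1) ^ 2 = y at *
    generalize 3 ^ a = X at *
    generalize 3 ^ b = Y at *
    nlinarith [Nat.zero_le (X * Y)])
  mul := fun b c hb hc => le_gg (by nlinarith) (by
    obtain ⟨b, rfl⟩ := Nat.exists_eq_add_of_le' (show 1 ≤ b by omega)
    obtain ⟨c, rfl⟩ := Nat.exists_eq_add_of_le' (show 1 ≤ c by omega)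
    have h1 := gg_sq (a := b + 1) (by omega)
    have h2 := gg_sq (a := c + 1) (by omega)
    simp only [Nat.add_sub_cancel] at h1 h2
    rw [show (b + 1) * (c + 1) - 1 = c + b * (c + 1) by
      rw [add_mul, one_mul]; omega, pow_add 3, pow_mul 3, mul_pow, ← pow_mul, mul_comm (c + 1) 2,
      pow_mul]
    exact Nat.mul_le_mul h2 (Nat.pow_le_pow_left h1 _))
  half := fun b k hb h => le_gg (by omega) (by
    rcases h with h | ⟨rfl, h⟩ | h
    · omega
    · rw [gg_eq (n := 6) (k := 15) (by decide) (by decide) (by decide)]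
      exact (Nat.pow_le_pow_left (show 2 * (k * 15) ≤ 420 by omega) 2).trans (by norm_num)
    · have h1 := Nat.mul_le_mul h (gg_sq (a := b) (by omega))
      rw [← pow_add, show b + (b - 1) = 2 * b - 1 by omega] at h1
      refine le_trans (le_of_eq ?_) h1
      ring)
  qb := fun n k hn h => by
    rcases h with h | ⟨rfl, h⟩ | h
    · exact h.2
    · rw [gg_eq (n := 6) (k := 15) (by decide) (by decide) (by decide)]
      omega
    · refine le_gg (by omega) ?_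
      obtain ⟨n, rfl⟩ := Nat.exists_eq_add_of_le' (show 1 ≤ n by omega)
      rw [pow_succ 3] at h
      rw [Nat.add_sub_cancel]
      omega
  sq := fun n k hn h => (Nat.pow_le_pow_left h 2).trans (gg_sq (by omega))
  val := ⟨gg_eq (by decide) (by decide) (by decide), gg_eq (by decide) (by decide) (by decide),
    rfl, gg_eq (by decide) (by decide) (by decide), gg_eq (by decide) (by decide) (by decide),
    gg_eq (by decide) (by decide) (by decide), gg_eq (by decide) (by decide) (by decide)⟩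

theorem cube {a b c d : ℕ} (h : a * b ≤ c * d) : a ^ 3 * b ^ 3 ≤ c ^ 3 * d ^ 3 := by
  rw [← mul_pow, ← mul_pow]
  exact Nat.pow_le_pow_left h 3

theorem step {w s : ℕ} (hw : w = 1 ∨ w = 2) (hs : 3 ≤ s) :
    w ^ 4 * (s + 1) ^ 3 ≤ 9 ^ w * s ^ 3 := by
  have := cube (show 3 * (s + 1) ≤ 4 * s by omega)
  generalize (s + 1) ^ 3 = x at *
  generalize s ^ 3 = y at *
  rcases hw with rfl | rfl <;> norm_num at this ⊢ <;> omega

theorem Cn_add (w : ℕ) {h s : ℕ} (hs : h ≤ s) (a : ℕ) :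
    Cn w h (s + a) = (9 ^ w) ^ a * Cn w h s := by
  rw [Cn, Cn, show s + a - h = a + (s - h) by omega, pow_add]
  ring

theorem key {w h : ℕ} (hw : w = 1 ∨ w = 2) (hh : 3 ≤ h) {s : ℕ} (hs : h ≤ s) :
    (w ^ 4) ^ s * s ^ 3 ≤ Cn w h s := by
  induction s, hs using Nat.le_induction with
  | base => rw [Cn, Nat.sub_self, pow_zero, mul_one, mul_comm]
  | succ s hs ih =>
    rw [Cn_add w hs, pow_one]
    calc (w ^ 4) ^ (s + 1) * (s + 1) ^ 3 = (w ^ 4) ^ s * (w ^ 4 * (s + 1) ^ 3) := by ring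
      _ ≤ (w ^ 4) ^ s * (9 ^ w * s ^ 3) := Nat.mul_le_mul_left _ (step hw (hh.trans hs))
      _ = 9 ^ w * ((w ^ 4) ^ s * s ^ 3) := by ring
      _ ≤ _ := Nat.mul_le_mul_left _ ih

theorem Dc_le {w h : ℕ} (m : ℕ) (hw : w = 1 ∨ w = 2) (hh : 3 ≤ h) {s : ℕ} (hs : h ≤ s) :
    Dc w h m s * s ^ 3 ≤ Cn w h s := by
  rw [Dc]
  split_ifs
  · exact key hw hh hs
  · exact Nat.div_mul_le_self _ _

theorem le_Dc {w h m : ℕ} (hw : w = 1 ∨ w = 2) (hh : 3 ≤ h) {s a g : ℕ} (hs : h ≤ s)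
    (hm : m ≤ s + a) (hg : g * (s + a) ^ 3 ≤ (9 ^ w) ^ a * s ^ 3) :
    g * Dc w h m s ≤ Dc w h m (s + a) := by
  rw [Dc.eq_1 w h m (s + a), if_neg (by omega), Nat.le_div_iff_mul_le (pow_pos (by omega) 3),
    Cn_add w hs]
  calc g * Dc w h m s * (s + a) ^ 3 = Dc w h m s * (g * (s + a) ^ 3) := by ring
    _ ≤ Dc w h m s * ((9 ^ w) ^ a * s ^ 3) := Nat.mul_le_mul_left _ hg
    _ = (9 ^ w) ^ a * (Dc w h m s * s ^ 3) := by ring
    _ ≤ _ := Nat.mul_le_mul_left _ (Dc_le m hw hh hs)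

theorem g4_le {a : ℕ} (h : a ≠ 2) : g4 a ≤ 9 ^ (a - 1) := by
  rw [g4, if_neg h]
  split_ifs with e
  · subst e
    norm_num
  · exact le_rfl

theorem jobCF : H2.Kp.CF := by
  refine ⟨fun a => ?_, fun w h m hw hh hm => ⟨fun N => ⟨?_, fun s _ => ?_,
    fun s _ h1 a h2 h3 => ?_, fun s _ _ h1 => absurd h1.1 (by decide)⟩,
    fun s hs => Dc_le m hw hh hs⟩⟩
  · rw [g4]
    split_ifs with e1 e2
    · subst e1
      decide
    · rw [e2, jobGA.val.2.2.2.2.1]
      norm_num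
    · calc gg a ^ 4 = (gg a ^ 2) ^ 2 := by ring
        _ ≤ (3 ^ (a - 1)) ^ 2 := Nat.pow_le_pow_left (gg_sq e1) 2
        _ = 9 ^ (a - 1) := by rw [← pow_mul, mul_comm, pow_mul]; norm_num
  · rw [Dc, if_pos (by omega), pow_zero]
  · by_cases e : s + 1 < m
    · rw [Dc, Dc, if_pos e, if_pos (by omega), pow_succ' (w ^ 4)]
    · exact le_Dc hw hh (by omega) (by omega) (by rw [pow_one]; exact step hw (by omega))
  · obtain ⟨t, rfl⟩ := Nat.exists_eq_add_of_le' (show a ≤ s by omega)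
    rw [Nat.add_sub_cancel]
    refine le_Dc hw hh (by omega) h1 ?_
    rw [← pow_mul]
    by_cases e : w * a = 2
    · obtain rfl : a = 2 := by rcases hw with rfl | rfl <;> omega
      have := cube (show 3 * (t + 2) ≤ 5 * t by omega)
      rw [e, show g4 2 = 16 from rfl]
      generalize (t + 2) ^ 3 = x at *
      generalize t ^ 3 = y at *
      norm_num at this ⊢
      omega
    · have h4 := cube (show 1 * (t + a) ≤ 2 * t by omega)
      obtain ⟨n, hn⟩ : ∃ n, w * a = n + 1 := ⟨w * a - 1, by rcases hw with rfl | rfl <;> omega⟩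
      have h5 := g4_le e
      rw [hn] at h5 ⊢
      rw [Nat.add_sub_cancel] at h5
      rw [pow_succ 9, mul_assoc]
      refine Nat.mul_le_mul h5 ?_
      norm_num at h4
      omega

end H51.Kp
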